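import Mathlib
import Cfsg.Prelude.Def_Local
import Cfsg.Prelude.Def_LocalEven
import Cfsg.Prelude.Def_Solvable
import Cfsg.Prelude.Def_Transfer

/-!
# CALL S2752 (helper87): shared definitions

`EA2 A` : elementwise form of "elementary abelian 2-subgroup".
`NoS3 G` : no involution inverts an element of order 3.
`Good A` : the key configuration (a hyperplane-like `B ≤ A`, `a ∈ A`, `g ∈ C(B)` with
`a * g⁻¹ * a * g` of odd prime order `r`, and a bound for `|A : B|` in terms of the order of 2 mod r).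
`Hyp G` : the three hypotheses of S2752 on the abstract group.
`CC K A` : every `A`-conjugate of `K` is `K` or commutes elementwise with `K`.
`dualAct` : the contragredient action on `M →+ ZMod 2`.
-/

set_option autoImplicit false

namespace Cfsg.Agent.Helper87.SF

universe u

/-- elementwise form of "elementary abelian 2-subgroup". -/
def EA2 {G : Type*} [Group G] (A : Subgroup G) : Prop :=
  (∀ a ∈ A, ∀ b ∈ A, a * b = b * a) ∧ ∀ a ∈ A, a * a = 1

/-- no involution inverts an element of order 3. -/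
def NoS3 (G : Type*) [Group G] : Prop :=
  ∀ a y : G, a * a = 1 → orderOf y = 3 → a * y * a⁻¹ = y⁻¹ → False

/-- the key configuration for the subgroup `A`. -/
def Good {G : Type*} [Group G] (A : Subgroup G) : Prop :=
  ∃ (B : Subgroup G) (a g : G) (r : ℕ), B ≤ A ∧ a ∈ A ∧ (∀ b ∈ B, g * b = b * g) ∧
    r.Prime ∧ r ≠ 2 ∧ orderOf (a * g⁻¹ * a * g) = r ∧
    (Nat.card A = 2 * Nat.card B ∨
      ∃ N : ℕ, (∀ k : ℕ, 0 < k → k < N → ¬ r ∣ 2 ^ k - 1) ∧
        Nat.card A ^ 4 ≤ 2 ^ (N + 1) * Nat.card B ^ 4)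

/-- the hypotheses of S2752 on the abstract group. -/
def Hyp (G : Type u) [Group G] : Prop :=
  Cfsg.pCore 2 G = ⊥ ∧ ¬ Cfsg.Involves (Equiv.Perm (Fin 3)) G ∧
    Cfsg.IsCompositionKGroupWith Cfsg.IsSuzukiOrPSL2OddPowerThree G

/-- every conjugate of `K` by an element of `A` is inside `K` or commutes elementwise with `K`. -/
def CC {G : Type*} [Group G] (K A : Subgroup G) : Prop :=
  ∀ c ∈ A, (∀ k ∈ K, c * k * c⁻¹ ∈ K) ∨
    (∀ k ∈ K, ∀ k' ∈ K, (c * k * c⁻¹) * k' = k' * (c * k * c⁻¹))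

/-- `K` is not commutative (elementwise form). -/
def NC {G : Type*} [Group G] (K : Subgroup G) : Prop :=
  ¬ ∀ x ∈ K, ∀ y ∈ K, x * y = y * x

/-- the contragredient action on `M →+ ZMod 2`: `(g • f) m = f (g⁻¹ • m)`. -/
@[reducible] def dualAct (Γ M : Type*) [Group Γ] [AddCommGroup M] [DistribMulAction Γ M] :
    DistribMulAction Γ (M →+ ZMod 2) where
  smul g f := f.comp (DistribSMul.toAddMonoidHom M g⁻¹)
  one_smul f := by
    ext m
    show f ((1 : Γ)⁻¹ • m) = f m
    rw [inv_one, one_smul]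
  mul_smul g h f := by
    ext m
    show f ((g * h)⁻¹ • m) = f (h⁻¹ • g⁻¹ • m)
    rw [mul_inv_rev, mul_smul]
  smul_zero g := by
    ext m
    rfl
  smul_add g f f' := by
    ext m
    rfl

theorem dualAct_apply (Γ M : Type*) [Group Γ] [AddCommGroup M] [DistribMulAction Γ M]
    (g : Γ) (f : M →+ ZMod 2) (m : M) :
    letI := dualAct Γ M
    (g • f) m = f (g⁻¹ • m) := rfl

end Cfsg.Agent.Helper87.SF
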