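import Cfsg.Agent.Helper35.Coprime
import Cfsg.Agent.Helper55.BGFpf
import Cfsg.Agent.Helper19.ThompsonThesis
import Cfsg.Agent.Helper23.Trans

/-!
CALL BG15 (helper25), piece CQ (helper87): `Q = C_Q(N) <z>`.
-/

set_option autoImplicit false

namespace Cfsg.Agent.Helper87

open Cfsg Subgroup
open scoped commutatorElement

universe u

variable {Γ : Type u} [Group Γ] [Finite Γ]

/-- Thompson: a fixed-point-free element of prime order forces nilpotency (local copy for an
arbitrary subgroup). -/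
theorem bg15cq_fpf_nilpotent (H : Subgroup Γ) {p : ℕ} (hp : p.Prime) {k : Γ}
    (hkH : k ∈ normalizer (H : Set Γ)) (hkp : k ^ p = 1)
    (hfix : ∀ a ∈ H, k * a = a * k → a = 1) : Group.IsNilpotent ↥H := by
  have key : ∀ n : ℕ, ∀ y : ↥H,
      (((⇑(Helper23.conjHom H ⟨k, hkH⟩))^[n] y : ↥H) : Γ) = k ^ n * y * (k ^ n)⁻¹ := by
    intro n
    induction n with
    | zero => intro y; simp
    | succ n ih =>
      intro y
      rw [Function.iterate_succ_apply']
      show k * ((⇑(Helper23.conjHom H ⟨k, hkH⟩))^[n] y : Γ) * k⁻¹ = _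
      rw [ih y, pow_succ']
      group
  have hFP : Helper19.FP p (Helper23.conjHom H ⟨k, hkH⟩) := by
    refine ⟨fun x hx => ?_, fun x => ?_⟩
    · have h1 : k * (x : Γ) * k⁻¹ = x := congrArg Subtype.val hx
      have h2 : k * (x : Γ) = x * k := by
        calc k * (x : Γ) = k * x * k⁻¹ * k := by group
          _ = x * k := by rw [h1]
      exact Subtype.ext (hfix x x.2 h2)
    · apply Subtype.ext
      rw [key, hkp]; simp
  exact Helper19.thompson_thesis hp _ hFP

/-- CQ. `Q = C_Q(N) <z>`. -/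
theorem bg15_Q_factor (hodd : Odd (Nat.card Γ)) (L N Q : Subgroup Γ) [L.Normal] [N.Normal]
    {p q : ℕ} (hp : p.Prime) (hq : q.Prime) {k z : Γ} (hkp : k ^ p = 1)
    (hpL : ¬ p ∣ Nat.card L) (hzq : orderOf z = q)
    (hfix : ∀ a ∈ L, k * a = a * k → a ∈ zpowers z)
    (hNL : N ≤ L) (hNq : (Nat.card N).Coprime q) (hQL : Q ≤ L) (hQq : IsPGroup q Q)
    (hkQ : k ∈ normalizer (Q : Set Γ)) :
    ∀ y ∈ Q, ∃ c ∈ Q ⊓ centralizer (N : Set Γ), ∃ w ∈ zpowers z, y = c * w := by
  have : Fact q.Prime := ⟨hq⟩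
  have hfixN : ∀ a ∈ N, k * a = a * k → a = 1 := by
    intro a ha hc
    have h1 := hfix a (hNL ha) hc
    have h2 : orderOf a ∣ q := by
      rw [← hzq, ← Nat.card_zpowers z]
      exact Subgroup.orderOf_dvd_natCard _ h1
    have h3 : orderOf a ∣ Nat.card N := Subgroup.orderOf_dvd_natCard _ ha
    have h4 : orderOf a = 1 := Nat.eq_one_of_dvd_coprimes hNq h3 h2
    exact orderOf_eq_one_iff.mp h4
  have hkN : k ∈ normalizer (N : Set Γ) := by
    rw [normalizer_eq_top]; trivial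
  have hNnil := bg15cq_fpf_nilpotent N hp hkN hkp hfixN
  have hpN : ¬ p ∣ Nat.card N := fun h => hpL (h.trans (Subgroup.card_dvd_of_le hNL))
  have hpQ : ¬ p ∣ Nat.card Q := fun h => hpL (h.trans (Subgroup.card_dvd_of_le hQL))
  have hcopNQ : (Nat.card N).Coprime (Nat.card Q) := by
    obtain ⟨n, hn⟩ := IsPGroup.iff_card.mp hQq
    rw [hn]; exact Nat.Coprime.pow_right n hNq
  have hQN : Q ≤ normalizer (N : Set Γ) := by
    rw [normalizer_eq_top]; exact le_top
  have hcl := Helper55.bg_fpf_closure_centralizes hodd hp N Q k k hNnil hQN hkN hkQ hkN hkQ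
    hkp hkp hpN hpQ hcopNQ hfixN hfixN
  have hzk : zpowers k ≤ closure ({k, k} : Set Γ) := by
    rw [zpowers_le]; exact subset_closure (by simp)
  have hcomm : ⁅Q, zpowers k⁆ ≤ centralizer (N : Set Γ) := by
    rw [Subgroup.commutator_le]
    intro y hy a ha
    have h1 := hcl a (hzk ha) y hy
    rw [mem_centralizer_iff]
    intro n hn
    have h2 := h1 n hn
    have h3 : ⁅y, a⁆ = (a * y * a⁻¹ * y⁻¹)⁻¹ := by
      rw [commutatorElement_def]; group
    rw [h3]
    have h4 : Commute (a * y * a⁻¹ * y⁻¹) n := h2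
    exact (h4.inv_left).eq.symm
  have hAK : zpowers k ≤ normalizer (Q : Set Γ) := by
    rw [zpowers_le]; exact hkQ
  have hcopA : (Nat.card (zpowers k)).Coprime (Nat.card Q) := by
    rw [Nat.card_zpowers]
    have h1 : orderOf k ∣ p := orderOf_dvd_of_pow_eq_one hkp
    exact Nat.Coprime.coprime_dvd_left h1 ((Nat.Prime.coprime_iff_not_dvd hp).mpr hpQ)
  intro y hy
  obtain ⟨n, hn, c, hc, hync⟩ :=
    Helper35.exists_commutator_mul_fixed hAK hcopA (Or.inl inferInstance) hy
  refine ⟨n, ⟨Helper35.commutator_le_of_le_normalizer hAK hn, hcomm hn⟩, c, ?_, hync⟩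
  apply hfix c (hQL hc.1)
  exact mem_centralizer_iff.mp hc.2 k (mem_zpowers k)

end Cfsg.Agent.Helper87
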