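import Mathlib
import Cfsg.Agent.Helper44.SPUDefs

/-!
CALL S2316 (helper44), piece QID (helper87, double): the `q`-identity.
-/

set_option autoImplicit false
open Classical

namespace Cfsg.Agent.Helper87.SPUQID

open Matrix Cfsg.Agent.Helper44.SPU

theorem isoN_zero_right (q m : ℕ) : isoN q m 0 = 1 := by
  cases m <;> rfl

theorem isoN_succ (q m k : ℕ) : isoN q (m + 1) (k + 1) =
    (1 + q ^ (2 * (m + 1) - (k + 1))) * isoN q m k + q ^ (k + 1) * isoN q m (k + 1) := rfl

theorem isoN_gt (q : ℕ) : ∀ m k : ℕ, m < k → isoN q m k = 0 := by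
  intro m
  induction m with
  | zero =>
    intro k hk
    cases k with
    | zero => omega
    | succ k => rfl
  | succ m ih =>
    intro k hk
    cases k with
    | zero => omega
    | succ k =>
      rw [isoN_succ, ih k (by omega), ih (k + 1) (by omega)]
      simp

theorem tri (k : ℕ) : k * (k + 1) / 2 = k.choose 2 + k := by
  have h1 := Nat.choose_two_right (k + 1)
  have h2 : (k + 1).choose 2 = k.choose 1 + k.choose 2 := Nat.choose_succ_succ k 1
  rw [Nat.choose_one_right] at h2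
  rw [Nat.add_sub_cancel] at h1
  rw [mul_comm, ← h1, h2, add_comm]

theorem uE_add (k d : ℕ) : uE (k + d) k = k.choose 2 + k + 2 * k * d + 2 * d ^ 2 := by
  unfold uE
  rw [Nat.add_sub_cancel_left, tri]

theorem bracket (q : ℕ) (m k : ℕ) (hk : k ≤ m) :
    wt q (k + 1) * ((q : ℤ) ^ (uE (m + 1) (k + 1)) - 1) * (1 + (q : ℤ) ^ (2 * (m + 1) - (k + 1)))
      + wt q k * ((q : ℤ) ^ (uE (m + 1) k) - 1) * (q : ℤ) ^ k
    = -(q : ℤ) ^ (2 * m + 1) * (wt q k * ((q : ℤ) ^ (uE m k) - 1)) := by
  obtain ⟨d, rfl⟩ := Nat.exists_eq_add_of_le hk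
  have e6 : (k + 1).choose 2 = k.choose 2 + k := by
    have h2 : (k + 1).choose 2 = k.choose 1 + k.choose 2 := Nat.choose_succ_succ k 1
    rw [Nat.choose_one_right] at h2
    rw [h2, add_comm]
  have e1 : uE (k + d + 1) (k + 1)
      = k.choose 2 + k + (k + 1) + 2 * (k + 1) * d + 2 * d ^ 2 := by
    have h : k + d + 1 = (k + 1) + d := by ring
    rw [h, uE_add, e6]
  have e2 : uE (k + d + 1) k = k.choose 2 + k + 2 * k * (d + 1) + 2 * (d + 1) ^ 2 := by
    have h : k + d + 1 = k + (d + 1) := by ring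
    rw [h, uE_add]
  have e3 := uE_add k d
  have e4 : 2 * (k + d + 1) - (k + 1) = k + 2 * d + 1 := by omega
  rw [e1, e2, e3, e4]
  unfold wt
  rw [e6]
  generalize k.choose 2 = c
  ring

set_option linter.unusedVariables false in
/-- QID: the `q`-identity (pure arithmetic). -/
theorem spu_qid (q : ℕ) (hq : 2 ≤ q) (m : ℕ) :
    ∑ k ∈ Finset.range (m + 1),
      wt q k * (isoN q m k : ℤ) * ((q : ℤ) ^ (uE m k) - 1) = 0 := by
  induction m with
  | zero => simp [wt, isoN, uE]
  | succ m ih =>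
    have key : ∑ k ∈ Finset.range (m + 1 + 1),
          wt q k * (isoN q (m + 1) k : ℤ) * ((q : ℤ) ^ (uE (m + 1) k) - 1)
        = -(q : ℤ) ^ (2 * m + 1) * ∑ k ∈ Finset.range (m + 1),
          wt q k * (isoN q m k : ℤ) * ((q : ℤ) ^ (uE m k) - 1) := by
      rw [Finset.sum_range_succ']
      have hB : ∑ k ∈ Finset.range (m + 1),
            wt q (k + 1) * ((q : ℤ) ^ (uE (m + 1) (k + 1)) - 1) * (q : ℤ) ^ (k + 1)
              * (isoN q m (k + 1) : ℤ)
            + wt q 0 * ((q : ℤ) ^ (uE (m + 1) 0) - 1) * (q : ℤ) ^ 0 * (isoN q m 0 : ℤ)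
          = ∑ k ∈ Finset.range (m + 1),
            wt q k * ((q : ℤ) ^ (uE (m + 1) k) - 1) * (q : ℤ) ^ k * (isoN q m k : ℤ) := by
        rw [← Finset.sum_range_succ' (fun k => wt q k * ((q : ℤ) ^ (uE (m + 1) k) - 1)
          * (q : ℤ) ^ k * (isoN q m k : ℤ)) (m + 1)]
        rw [Finset.sum_range_succ, isoN_gt q m (m + 1) (by omega)]
        simp
      rw [Finset.mul_sum]
      have hL : ∑ k ∈ Finset.range (m + 1),
            wt q (k + 1) * (isoN q (m + 1) (k + 1) : ℤ) * ((q : ℤ) ^ (uE (m + 1) (k + 1)) - 1)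
            + wt q 0 * (isoN q (m + 1) 0 : ℤ) * ((q : ℤ) ^ (uE (m + 1) 0) - 1)
          = ∑ k ∈ Finset.range (m + 1),
              (wt q (k + 1) * ((q : ℤ) ^ (uE (m + 1) (k + 1)) - 1)
                * (1 + (q : ℤ) ^ (2 * (m + 1) - (k + 1))) * (isoN q m k : ℤ))
            + (∑ k ∈ Finset.range (m + 1),
                wt q (k + 1) * ((q : ℤ) ^ (uE (m + 1) (k + 1)) - 1) * (q : ℤ) ^ (k + 1)
                  * (isoN q m (k + 1) : ℤ)
              + wt q 0 * ((q : ℤ) ^ (uE (m + 1) 0) - 1) * (q : ℤ) ^ 0 * (isoN q m 0 : ℤ)) := by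
        rw [← add_assoc, ← Finset.sum_add_distrib]
        congr 1
        · apply Finset.sum_congr rfl
          intro k _
          rw [isoN_succ]
          push_cast
          ring
        · rw [isoN_zero_right, isoN_zero_right]
          ring
      rw [hL, hB, ← Finset.sum_add_distrib]
      apply Finset.sum_congr rfl
      intro k hk
      have hk' : k ≤ m := by
        have := Finset.mem_range.mp hk
        omega
      have hb := bracket q m k hk'
      linear_combination (isoN q m k : ℤ) * hb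
    rw [key, ih, mul_zero]

end Cfsg.Agent.Helper87.SPUQID
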