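import Mathlib
import Cfsg.Agent.Helper79.S4705Defs
import Cfsg.Agent.Helper79.Basic
import Cfsg.Agent.Helper81.CharBasic

/-!
SUB-CALL S4705Z (helper79), piece ALG (helper87): the final inequality.
-/

set_option autoImplicit false
open Cfsg Cfsg.Agent.Helper79
open scoped ComplexConjugate

universe u

namespace Cfsg.Agent.Helper87

theorem s4705z_alg_idL (s e A P : ℚ) (hA : A ≠ 0) (hB : A + P ≠ 0) (hP : P ≠ 0) :
    s ^ 2 / A - (s + e) ^ 2 / (A + P) + e ^ 2 / P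
      = (s * P - e * A) ^ 2 / (A * (A + P) * P) := by
  field_simp
  ring

theorem s4705z_alg_idR (s δ U : ℚ) (hδ : δ ^ 2 = 1) (hU : U ≠ 0) (hV : U + δ ≠ 0) :
    1 + δ * s ^ 2 / U - δ * (s + δ) ^ 2 / (U + δ) = (U - s) ^ 2 / (U * (U + δ)) := by
  field_simp
  linear_combination (s ^ 2 - 2 * s * U - δ * U) * hδ

/-- The rational form of ALG. -/
theorem s4705z_alg_aux (p a m s₁ e s δ : ℚ) (hp : 7 ≤ p) (ha : 1 ≤ a) (hm : 1 ≤ m)
    (he : e = 1 ∨ e = -1) (hδ : δ = 1 ∨ δ = -1) (hs₁ : |s₁| ≤ a + 1) (hs : s ≤ m - 1)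
    (heq : s₁ ^ 2 / (1 + a * p) - (s₁ + e) ^ 2 / ((a + 1) * p - 1) + e ^ 2 / (p - 2)
      = 1 + δ * s ^ 2 / (m * p + δ) - δ * (s + δ) ^ 2 / (m * p + δ + δ)) : False := by
  have hp0 : 0 < p := by linarith
  have ha0 : 0 < a := by linarith
  have hm0 : 0 < m := by linarith
  have hap : 7 ≤ a * p := by nlinarith
  have hmp : 7 ≤ m * p := by nlinarith
  have hA0 : 0 < 1 + a * p := by linarith
  have hB0 : 0 < (a + 1) * p - 1 := by nlinarith
  have hP0 : 0 < p - 2 := by linarith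
  have hU0 : 0 < m * p + δ := by rcases hδ with rfl | rfl <;> linarith
  have hV0 : 0 < m * p + δ + δ := by rcases hδ with rfl | rfl <;> linarith
  have hA0' : 1 + a * p ≠ 0 := hA0.ne'
  have hB0' : (a + 1) * p - 1 ≠ 0 := hB0.ne'
  have hP0' : p - 2 ≠ 0 := hP0.ne'
  have hU0' : m * p + δ ≠ 0 := hU0.ne'
  have hV0' : m * p + δ + δ ≠ 0 := hV0.ne'
  have hL : s₁ ^ 2 / (1 + a * p) - (s₁ + e) ^ 2 / ((a + 1) * p - 1) + e ^ 2 / (p - 2)
      = (s₁ * (p - 2) - e * (1 + a * p)) ^ 2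
          / ((1 + a * p) * ((a + 1) * p - 1) * (p - 2)) := by
    have hB : (a + 1) * p - 1 = (1 + a * p) + (p - 2) := by ring
    rw [hB]
    rw [hB] at hB0'
    exact s4705z_alg_idL s₁ e (1 + a * p) (p - 2) hA0' hB0' hP0'
  have hR : 1 + δ * s ^ 2 / (m * p + δ) - δ * (s + δ) ^ 2 / (m * p + δ + δ)
      = (m * p + δ - s) ^ 2 / ((m * p + δ) * (m * p + δ + δ)) := by
    have hδ2 : δ ^ 2 = 1 := by rcases hδ with rfl | rfl <;> norm_num
    exact s4705z_alg_idR s δ (m * p + δ) hδ2 hU0' hV0'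
  rw [hL, hR] at heq
  have hc1 : (s₁ * (p - 2) - e * (1 + a * p)) ^ 2
      / ((1 + a * p) * ((a + 1) * p - 1) * (p - 2)) ≤ (p - 1) ^ 2 / p ^ 2 := by
    rw [div_le_div_iff₀ (by positivity) (by positivity)]
    have habs := abs_le.mp hs₁
    have h1 : (s₁ * (p - 2) - e * (1 + a * p)) ^ 2 ≤ ((2 * a + 1) * (p - 1)) ^ 2 := by
      apply sq_le_sq'
      · rcases he with rfl | rfl <;> nlinarith [habs.1, habs.2]
      · rcases he with rfl | rfl <;> nlinarith [habs.1, habs.2]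
    have h2 : (2 * a + 1) ^ 2 * p ^ 2 ≤ (1 + a * p) * ((a + 1) * p - 1) * (p - 2) := by
      have hid : (1 + a * p) * ((a + 1) * p - 1) * (p - 2) - (2 * a + 1) ^ 2 * p ^ 2
          = a * (a + 1) * p ^ 2 * (p - 7) + (a ^ 2 + a - 1) * p ^ 2 + (p - 1) * (p - 2) := by
        ring
      have t1 : 0 ≤ a * (a + 1) * p ^ 2 * (p - 7) := by
        have : 0 ≤ p - 7 := by linarith
        positivity
      have t2 : 0 ≤ (a ^ 2 + a - 1) * p ^ 2 := by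
        have : 0 ≤ a ^ 2 + a - 1 := by nlinarith
        positivity
      have t3 : 0 ≤ (p - 1) * (p - 2) := by
        have : 0 ≤ p - 1 := by linarith
        have : 0 ≤ p - 2 := by linarith
        positivity
      linarith
    calc (s₁ * (p - 2) - e * (1 + a * p)) ^ 2 * p ^ 2
        ≤ ((2 * a + 1) * (p - 1)) ^ 2 * p ^ 2 :=
          mul_le_mul_of_nonneg_right h1 (by positivity)
      _ = (p - 1) ^ 2 * ((2 * a + 1) ^ 2 * p ^ 2) := by ring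
      _ ≤ (p - 1) ^ 2 * ((1 + a * p) * ((a + 1) * p - 1) * (p - 2)) :=
          mul_le_mul_of_nonneg_left h2 (by positivity)
  have hc2 : (p - 1) ^ 2 / p ^ 2
      < (m * p + δ - s) ^ 2 / ((m * p + δ) * (m * p + δ + δ)) := by
    rw [div_lt_div_iff₀ (by positivity) (by positivity)]
    have hW0 : 0 ≤ m * (p - 1) + 1 + δ := by
      have : 0 ≤ m * (p - 1) := by
        have : 0 ≤ p - 1 := by linarith
        positivity
      rcases hδ with rfl | rfl <;> linarith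
    have h1 : (m * (p - 1) + 1 + δ) ^ 2 ≤ (m * p + δ - s) ^ 2 := by
      apply pow_le_pow_left₀ hW0
      linarith
    have h2 : (p - 1) ^ 2 * ((m * p + δ) * (m * p + δ + δ))
        < (m * (p - 1) + 1 + δ) ^ 2 * p ^ 2 := by
      rcases hδ with rfl | rfl
      · have hid : (m * (p - 1) + 1 + 1) ^ 2 * p ^ 2
            - (p - 1) ^ 2 * ((m * p + 1) * (m * p + 1 + 1))
            = m * p * (p - 1) * (p + 3) + 2 * p ^ 2 + 4 * p - 2 := by ring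
        have t1 : 0 ≤ m * p * (p - 1) * (p + 3) := by
          have : 0 ≤ p - 1 := by linarith
          positivity
        nlinarith
      · have hid : (m * (p - 1) + 1 + -1) ^ 2 * p ^ 2
            - (p - 1) ^ 2 * ((m * p + -1) * (m * p + -1 + -1))
            = (p - 1) ^ 2 * (3 * (m * p) - 2) := by ring
        have t1 : 0 < (p - 1) ^ 2 * (3 * (m * p) - 2) := by
          have : 0 < p - 1 := by linarith
          have : 0 < 3 * (m * p) - 2 := by linarith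
          positivity
        linarith
    calc (p - 1) ^ 2 * ((m * p + δ) * (m * p + δ + δ))
        < (m * (p - 1) + 1 + δ) ^ 2 * p ^ 2 := h2
      _ ≤ (m * p + δ - s) ^ 2 * p ^ 2 := mul_le_mul_of_nonneg_right h1 (by positivity)
  rw [heq] at hc1
  exact absurd hc1 (not_le.mpr hc2)

/-- ALG: the final inequality. -/
theorem s4705z_alg (p a m : ℕ) (hp : 7 ≤ p) (ha : 1 ≤ a) (hm : 1 ≤ m) (s₁ e s δ : ℤ)
    (he : e = 1 ∨ e = -1) (hδ : δ = 1 ∨ δ = -1) (hs₁ : |s₁| ≤ (a : ℤ) + 1)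
    (hs : s ≤ (m : ℤ) - 1)
    (heq : (s₁ : ℂ) ^ 2 / ((1 + a * p : ℕ) : ℂ)
        - ((s₁ : ℂ) + (e : ℂ)) ^ 2 / ((((a + 1) * p : ℕ) : ℂ) - 1)
        + (e : ℂ) ^ 2 / ((p : ℂ) - 2)
      = 1 + (δ : ℂ) * (s : ℂ) ^ 2 / (((m * p : ℕ) : ℂ) + (δ : ℂ))
        - (δ : ℂ) * ((s : ℂ) + (δ : ℂ)) ^ 2 / (((m * p : ℕ) : ℂ) + (δ : ℂ) + (δ : ℂ))) :
    False := by
  have heqQ : (s₁ : ℚ) ^ 2 / (1 + (a : ℚ) * (p : ℚ))
        - ((s₁ : ℚ) + (e : ℚ)) ^ 2 / (((a : ℚ) + 1) * (p : ℚ) - 1)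
        + (e : ℚ) ^ 2 / ((p : ℚ) - 2)
      = 1 + (δ : ℚ) * (s : ℚ) ^ 2 / ((m : ℚ) * (p : ℚ) + (δ : ℚ))
        - (δ : ℚ) * ((s : ℚ) + (δ : ℚ)) ^ 2 / ((m : ℚ) * (p : ℚ) + (δ : ℚ) + (δ : ℚ)) := by
    have h2 : (((s₁ : ℚ) ^ 2 / (1 + (a : ℚ) * (p : ℚ))
        - ((s₁ : ℚ) + (e : ℚ)) ^ 2 / (((a : ℚ) + 1) * (p : ℚ) - 1)
        + (e : ℚ) ^ 2 / ((p : ℚ) - 2) : ℚ) : ℂ)
      = ((1 + (δ : ℚ) * (s : ℚ) ^ 2 / ((m : ℚ) * (p : ℚ) + (δ : ℚ))
        - (δ : ℚ) * ((s : ℚ) + (δ : ℚ)) ^ 2 / ((m : ℚ) * (p : ℚ) + (δ : ℚ) + (δ : ℚ)) : ℚ) : ℂ) := by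
      push_cast
      push_cast at heq
      exact heq
    exact_mod_cast h2
  refine s4705z_alg_aux (p : ℚ) (a : ℚ) (m : ℚ) (s₁ : ℚ) (e : ℚ) (s : ℚ) (δ : ℚ)
    (by exact_mod_cast hp) (by exact_mod_cast ha) (by exact_mod_cast hm) ?_ ?_ ?_ ?_ heqQ
  · rcases he with rfl | rfl
    · left; norm_num
    · right; norm_num
  · rcases hδ with rfl | rfl
    · left; norm_num
    · right; norm_num
  · exact_mod_cast hs₁
  · exact_mod_cast hs

end Cfsg.Agent.Helper87
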