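import Mathlib
import Cfsg.Agent.Helper79.S4705Defs
import Cfsg.Agent.Helper79.Basic
import Cfsg.Agent.Helper81.CharBasic

/-!
SUB-CALL S4705Z (helper79), piece TAU (helper87): an involution inverting `x`.
-/

set_option autoImplicit false
open Cfsg Cfsg.Agent.Helper79
open scoped ComplexConjugate

universe u

namespace Cfsg.Agent.Helper87

variable {H : Type u} [Group H] [Finite H]

/-- TAU: an involution inverting `x`. -/
theorem s4705z_tau (p : ℕ) [Fact p.Prime] (x : H) (ζ : H → ℂ) (h : S4705Wk p x ζ)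
    (S : S4705Shape p x ζ) (hodd : Odd (Nat.card (Subgroup.center H))) :
    ∃ t : H, t * t = 1 ∧ t * x * t⁻¹ = x⁻¹ := by
  obtain ⟨n, hn⟩ := S.hinv
  have hpp : p.Prime := Fact.out
  have hn0 : orderOf n ≠ 0 := (orderOf_pos n).ne'
  obtain ⟨k, m, hm, hkm⟩ := Nat.exists_eq_two_pow_mul_odd hn0
  obtain ⟨j, rfl⟩ := hm
  have s1 : SemiconjBy n x x⁻¹ := by
    show n * x = x⁻¹ * n
    rw [← hn]; group
  have s2 : SemiconjBy n x⁻¹ x := by
    have := s1.inv_right
    rwa [inv_inv] at this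
  have c2 : SemiconjBy (n * n) x x := s2.mul_left s1
  have c3 : SemiconjBy ((n * n) ^ j) x x := Commute.pow_left c2 j
  have c4 : SemiconjBy ((n * n) ^ j) x⁻¹ x⁻¹ := c3.inv_right
  have su : SemiconjBy ((n * n) ^ j * n) x x⁻¹ := c4.mul_left s1
  have hun : (n * n) ^ j * n = n ^ (2 * j + 1) := by
    rw [← pow_two, ← pow_mul, pow_succ]
  generalize (n * n) ^ j * n = u at su hun
  have hu2k : u ^ (2 ^ k) = 1 := by
    rw [hun, ← pow_mul, mul_comm, ← hkm]; exact pow_orderOf_eq_one n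
  have su' : SemiconjBy u x⁻¹ x := by
    have := su.inv_right
    rwa [inv_inv] at this
  have cu : SemiconjBy (u * u) x x := su'.mul_left su
  obtain ⟨i, z, hz, hiz⟩ := S.hcent (u * u) cu.eq
  have hzc : ∀ g : H, g * z = z * g := fun g => Subgroup.mem_center_iff.mp hz g
  have e1 : u * (x ^ i * z) = (x⁻¹ ^ i * z) * u := by
    have := (su.pow_right i).eq
    rw [← mul_assoc, this, mul_assoc, hzc u, mul_assoc]
  have e2 : u * (u * u) = (u * u) * u := by group
  rw [hiz, e1] at e2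
  have e3 : x⁻¹ ^ i * z = x ^ i * z := mul_right_cancel e2
  have e4 : x⁻¹ ^ i = x ^ i := mul_right_cancel e3
  have e5 : x ^ (2 * i) = 1 := by
    rw [two_mul, pow_add]
    nth_rewrite 1 [← e4]
    rw [inv_pow, inv_mul_cancel]
  have e6 : p ∣ 2 * i := by
    rw [← h.hx]; exact orderOf_dvd_of_pow_eq_one e5
  have e7 : p ∣ i := by
    rcases (Nat.Prime.dvd_mul hpp).mp e6 with h2 | hi
    · have h3 := Nat.le_of_dvd (by norm_num) h2
      have h4 := h.hp
      omega
    · exact hi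
  have e8 : x ^ i = 1 := by
    rw [← h.hx] at e7; exact orderOf_dvd_iff_pow_eq_one.mp e7
  have e9 : u * u = z := by rw [hiz, e8, one_mul]
  have o1 : orderOf (u * u) ∣ 2 ^ k := by
    apply orderOf_dvd_of_pow_eq_one
    rw [← pow_two, ← pow_mul, mul_comm, pow_mul, hu2k, one_pow]
  have o2 : orderOf (u * u) ∣ Nat.card (Subgroup.center H) := by
    rw [e9]; exact Subgroup.orderOf_dvd_natCard _ hz
  have o3 : orderOf (u * u) = 1 := by
    have hc : Nat.Coprime (2 ^ k) (Nat.card (Subgroup.center H)) :=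
      Nat.Coprime.pow_left k (Nat.coprime_two_left.mpr hodd)
    exact Nat.eq_one_of_dvd_coprimes hc o1 o2
  refine ⟨u, orderOf_eq_one_iff.mp o3, ?_⟩
  rw [su.eq]; group

end Cfsg.Agent.Helper87
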