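import Mathlib
import Cfsg.Agent.S0570
import Cfsg.Agent.Helper35.HallCoprime
import Cfsg.Agent.Helper64.PiTwo

/-!
CALL S1438 (helper2), piece FU3 (helper87, double): fusion by an element of the nilpotent
normal subgroup `F` is induced by `H`.
-/

set_option autoImplicit false

namespace Cfsg.Agent.Helper87

open Cfsg Subgroup

universe u

/-- `|H| * |K : H| = |K|` for `H ≤ K`. -/
theorem fu3_card_mul_relIndex {Γ : Type u} [Group Γ] {H K : Subgroup Γ} (h : H ≤ K) :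
    Nat.card H * H.relIndex K = Nat.card K := by
  have h1 := relIndex_mul_relIndex (⊥ : Subgroup Γ) H K bot_le h
  rwa [relIndex_bot_left, relIndex_bot_left] at h1

/-- For `F` normal: `|F : H ∩ F| = |HF : H|`. -/
theorem fu3_relIndex_sup {Γ : Type u} [Group Γ] [Finite Γ] (H F : Subgroup Γ) [F.Normal] :
    H.relIndex (H ⊔ F) = H.relIndex F := by
  have h1 : Nat.card ↥(H ⊔ F) = Nat.card F * F.relIndex H := by
    rw [← relIndex_sup_right H F]
    exact (fu3_card_mul_relIndex (le_sup_right : F ≤ H ⊔ F)).symm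
  have h2 : Nat.card H = Nat.card ↥(H ⊓ F) * F.relIndex H := by
    rw [← inf_relIndex_left H F]
    exact (fu3_card_mul_relIndex (inf_le_left : H ⊓ F ≤ H)).symm
  have h3 : Nat.card ↥(H ⊔ F) = Nat.card H * H.relIndex (H ⊔ F) :=
    (fu3_card_mul_relIndex (le_sup_left : H ≤ H ⊔ F)).symm
  have h4 : Nat.card F = Nat.card ↥(H ⊓ F) * H.relIndex F := by
    rw [← inf_relIndex_right H F]
    exact (fu3_card_mul_relIndex (inf_le_right : H ⊓ F ≤ F)).symm
  have hpos1 : 0 < Nat.card ↥(H ⊓ F) := Nat.card_pos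
  have hpos2 : 0 < F.relIndex H := by
    rcases Nat.eq_zero_or_pos (F.relIndex H) with h0 | h0
    · rw [h0, mul_zero] at h2
      exact absurd h2 Nat.card_pos.ne'
    · exact h0
  have h5 : Nat.card ↥(H ⊓ F) * F.relIndex H * H.relIndex (H ⊔ F)
      = Nat.card ↥(H ⊓ F) * F.relIndex H * H.relIndex F := by
    calc Nat.card ↥(H ⊓ F) * F.relIndex H * H.relIndex (H ⊔ F)
        = Nat.card H * H.relIndex (H ⊔ F) := by rw [h2]
      _ = Nat.card ↥(H ⊔ F) := h3.symm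
      _ = Nat.card F * F.relIndex H := h1
      _ = Nat.card ↥(H ⊓ F) * H.relIndex F * F.relIndex H := by rw [h4]
      _ = Nat.card ↥(H ⊓ F) * F.relIndex H * H.relIndex F := by ring
  exact Nat.eq_of_mul_eq_mul_left (Nat.mul_pos hpos1 hpos2) h5

/-- FU3 (pure). -/
theorem bg157_fusion_F {Γ : Type u} [Group Γ] [Finite Γ] {F S H : Subgroup Γ} [F.Normal]
    (hFS : F ≤ S) (hF : Group.IsNilpotent ↥F) (hHS : H ≤ S)
    (hHall : (Nat.card H).Coprime (H.relIndex S))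
    (hP : (Nat.card ↥(Subgroup.closure
      {f : Γ | f ∈ F ∧ (orderOf f).Coprime (Nat.card H)})).Coprime (Nat.card H))
    {z f : Γ} (hz : z ∈ H) (hf : f ∈ F) (hfz : f * z * f⁻¹ ∈ H) :
    ∃ h ∈ H, h * z * h⁻¹ = f * z * f⁻¹ := by
  have hFn : F.Normal := inferInstance
  -- the decomposition of `orderOf f`
  obtain ⟨b, a, he, hcop, hb, ha⟩ :=
    Helper35.exists_pi_factorization {p : ℕ | p ∣ Nat.card H} (orderOf f) (orderOf_pos f).ne'
  have hbez := Nat.gcd_eq_gcd_ab b a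
  rw [hcop.gcd_eq_one] at hbez
  set x : ℤ := Nat.gcdA b a with hx
  set y : ℤ := Nat.gcdB b a with hy
  have hf₁F : f ^ ((a : ℤ) * y) ∈ F := zpow_mem hf _
  have hf₂F : f ^ ((b : ℤ) * x) ∈ F := zpow_mem hf _
  have hprod : f ^ ((a : ℤ) * y) * f ^ ((b : ℤ) * x) = f := by
    rw [← zpow_add]
    have e1 : (a : ℤ) * y + (b : ℤ) * x = 1 := by
      rw [add_comm]; exact_mod_cast hbez.symm
    rw [e1, zpow_one]
  have ho₁ : orderOf (f ^ ((a : ℤ) * y)) ∣ b := by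
    apply orderOf_dvd_of_pow_eq_one
    rw [← zpow_natCast, ← zpow_mul]
    have e1 : (a : ℤ) * y * (b : ℤ) = ((orderOf f : ℕ) : ℤ) * y := by
      rw [he]; push_cast; ring
    rw [e1, zpow_mul, zpow_natCast, pow_orderOf_eq_one, one_zpow]
  have ho₂ : orderOf (f ^ ((b : ℤ) * x)) ∣ a := by
    apply orderOf_dvd_of_pow_eq_one
    rw [← zpow_natCast, ← zpow_mul]
    have e1 : (b : ℤ) * x * (a : ℤ) = ((orderOf f : ℕ) : ℤ) * x := by
      rw [he]; push_cast; ring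
    rw [e1, zpow_mul, zpow_natCast, pow_orderOf_eq_one, one_zpow]
  generalize f ^ ((a : ℤ) * y) = f₁ at hf₁F hprod ho₁
  generalize f ^ ((b : ℤ) * x) = f₂ at hf₂F hprod ho₂
  have ha' : a.Coprime (Nat.card H) :=
    Nat.coprime_of_dvd (fun p hp hpa hpn => ha p hp hpn hpa)
  have ho₂' : (orderOf f₂).Coprime (Nat.card H) := Nat.Coprime.coprime_dvd_left ho₂ ha'
  -- Claim 1: `f₁ ∈ H`
  have hf₁H : f₁ ∈ H := by
    have : Group.IsNilpotent ↥F := hF
    have hidx : (H.subgroupOf F).index ∣ H.relIndex S := by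
      show H.relIndex F ∣ H.relIndex S
      rw [← fu3_relIndex_sup H F]
      have h1 := relIndex_mul_relIndex H (H ⊔ F) S le_sup_left (sup_le hHS hFS)
      exact Dvd.intro _ h1
    have hcard : Nat.card ↥(H.subgroupOf F) ∣ Nat.card H := by
      rw [← inf_subgroupOf_right H F,
        Nat.card_congr (subgroupOfEquivOfLe (inf_le_right : H ⊓ F ≤ F)).toEquiv]
      exact Subgroup.card_dvd_of_le inf_le_left
    have hK : (Nat.card ↥(H.subgroupOf F)).Coprime (H.subgroupOf F).index :=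
      Nat.Coprime.coprime_dvd_left hcard (Nat.Coprime.coprime_dvd_right hidx hHall)
    have : (H.subgroupOf F).Normal := Cfsg.Agent.S0570.normal_of_hall_of_nilpotent _ hK
    have hb' : b.Coprime (H.relIndex S) := by
      apply Nat.coprime_of_dvd
      intro p hp hpb hpi
      have h1 : p ∣ Nat.card H := hb p hp hpb
      have h2 : p ∣ Nat.gcd (Nat.card H) (H.relIndex S) := Nat.dvd_gcd h1 hpi
      rw [hHall.gcd_eq_one] at h2
      exact hp.one_lt.ne' (Nat.dvd_one.mp h2)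
    have h3 : (orderOf (⟨f₁, hf₁F⟩ : ↥F)).Coprime (H.subgroupOf F).index := by
      rw [Subgroup.orderOf_mk]
      exact Nat.Coprime.coprime_dvd_left ho₁ (Nat.Coprime.coprime_dvd_right hidx hb')
    have h4 := Helper64.mem_of_coprime_index (H.subgroupOf F) (⟨f₁, hf₁F⟩ : ↥F) h3
    exact mem_subgroupOf.mp h4
  -- Claim 2
  have hc1 : f₂ * z * f₂⁻¹ ∈ H := by
    have e : f₂ * z * f₂⁻¹ = f₁⁻¹ * (f * z * f⁻¹) * f₁ := by
      rw [← hprod]; group
    rw [e]
    exact mul_mem (mul_mem (inv_mem hf₁H) hfz) hf₁H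
  have hcH : f₂ * z * f₂⁻¹ * z⁻¹ ∈ H := mul_mem hc1 (inv_mem hz)
  have hcP : f₂ * z * f₂⁻¹ * z⁻¹ ∈ Subgroup.closure
      {f : Γ | f ∈ F ∧ (orderOf f).Coprime (Nat.card H)} := by
    have e : f₂ * z * f₂⁻¹ * z⁻¹ = f₂ * (z * f₂⁻¹ * z⁻¹) := by group
    rw [e]
    refine mul_mem (subset_closure ⟨hf₂F, ho₂'⟩) (subset_closure ⟨?_, ?_⟩)
    · exact hFn.conj_mem _ (inv_mem hf₂F) z
    · have h1 : orderOf (z * f₂⁻¹ * z⁻¹) = orderOf f₂⁻¹ := (MulAut.conj z).orderOf_eq f₂⁻¹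
      rw [h1, orderOf_inv]
      exact ho₂'
  have hc : f₂ * z * f₂⁻¹ * z⁻¹ = 1 := by
    have h1 : orderOf (f₂ * z * f₂⁻¹ * z⁻¹) ∣ Nat.card H := Subgroup.orderOf_dvd_natCard _ hcH
    have h2 := Subgroup.orderOf_dvd_natCard _ hcP
    exact orderOf_eq_one_iff.mp (Nat.eq_one_of_dvd_coprimes hP h2 h1)
  have hfix : f₂ * z * f₂⁻¹ = z := by
    have e : f₂ * z * f₂⁻¹ = (f₂ * z * f₂⁻¹ * z⁻¹) * z := by group
    rw [e, hc, one_mul]
  refine ⟨f₁, hf₁H, ?_⟩
  have e : f * z * f⁻¹ = f₁ * (f₂ * z * f₂⁻¹) * f₁⁻¹ := by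
    rw [← hprod]; group
  rw [e, hfix]

end Cfsg.Agent.Helper87
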