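/-
CALL BG83 (helper25, row S1383), piece NILP (double): the Sylow `q`-subgroup of a nilpotent
subgroup `H` of `G`, as a subgroup of `G`.
-/
import Cfsg.Statements.S1383
import Cfsg.Agent.Helper25.CN

set_option autoImplicit false

namespace Cfsg.Agent.Helper87

open Cfsg Subgroup

universe u

variable {G : Type u} [Group G] [Finite G]

/-- NILP (pure). The Sylow `q`-subgroup of a nilpotent `H`, as a subgroup of `G`. -/
theorem bg83_nilp_sylow (H : Subgroup G) (hnil : Group.IsNilpotent ↥H) (q : ℕ) [Fact q.Prime] :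
    ∃ S : Subgroup G, S ≤ H ∧ IsPGroup q S ∧
      (∀ Q : Subgroup G, Q ≤ H → IsPGroup q Q → Q ≤ S) ∧
      (∀ s ∈ S, ∀ h ∈ H, (orderOf h).Coprime q → s * h = h * s) ∧
      (∀ h ∈ H, ∃ s ∈ S, ∃ t ∈ H, (orderOf t).Coprime q ∧ h = s * t) := by
  have hq : q.Prime := Fact.out
  obtain ⟨P⟩ : Nonempty (Sylow q ↥H) := inferInstance
  have hall : ∀ (p : ℕ) (_hp : Fact p.Prime) (P : Sylow p ↥H), (P : Subgroup ↥H).Normal :=
    ((Group.isNilpotent_of_finite_tfae (G := ↥H)).out 0 3).mp hnil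
  have hPn : (P : Subgroup ↥H).Normal := hall q inferInstance P
  have hSH : (P : Subgroup ↥H).map H.subtype ≤ H := by
    rintro _ ⟨x, -, rfl⟩
    exact x.2
  have hSq : IsPGroup q ↥((P : Subgroup ↥H).map H.subtype) := P.isPGroup'.map H.subtype
  have hmax : ∀ Q : Subgroup G, Q ≤ H → IsPGroup q Q → Q ≤ (P : Subgroup ↥H).map H.subtype := by
    intro Q hQH hQ x hx
    have hQ' : IsPGroup q ↥(Q.subgroupOf H) :=
      hQ.of_equiv (Subgroup.subgroupOfEquivOfLe hQH).symm
    obtain ⟨R, hR⟩ := hQ'.exists_le_sylow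
    have hRP : R = P := by
      have hu : Unique (Sylow q ↥H) := Sylow.unique_of_normal P hPn
      exact Subsingleton.elim _ _
    rw [hRP] at hR
    exact ⟨⟨x, hQH hx⟩, hR (Subgroup.mem_subgroupOf.mpr hx), rfl⟩
  refine ⟨(P : Subgroup ↥H).map H.subtype, hSH, hSq, hmax, ?_, ?_⟩
  · intro s hs h hh hco
    obtain ⟨j, hj⟩ := hSq ⟨s, hs⟩
    have h1 : s ^ q ^ j = 1 := by
      have h := congrArg Subtype.val hj
      simpa using h
    obtain ⟨k, -, hso⟩ := (Nat.dvd_prime_pow hq).mp (orderOf_dvd_of_pow_eq_one h1)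
    have hco' : (orderOf s).Coprime (orderOf h) := by
      rw [hso]
      exact Nat.Coprime.pow_left k hco.symm
    exact (Cfsg.Agent.Helper25.commute_of_coprime_of_mem_nilpotent H hnil (hSH hs) hh hco').eq
  · intro h hh
    obtain ⟨a, b, hab, haz, hbz, ⟨k, hk⟩, hcop⟩ :=
      Cfsg.Agent.Helper25.exists_primary_decomp q hq h (orderOf_pos h).ne'
    have haH : a ∈ H := (Subgroup.zpowers_le.mpr hh) haz
    have hbH : b ∈ H := (Subgroup.zpowers_le.mpr hh) hbz
    have hza : IsPGroup q ↥(Subgroup.zpowers a) := by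
      refine IsPGroup.of_card (n := k) ?_
      rw [Nat.card_zpowers, hk]
    exact ⟨a, hmax _ (Subgroup.zpowers_le.mpr haH) hza (Subgroup.mem_zpowers a), b, hbH, hcop, hab⟩

end Cfsg.Agent.Helper87
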