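import Cfsg.Agent.Helper55.N9Defs
import Cfsg.Agent.S3742

/-!
CALL S4409 (helper55), piece Q2 (helper87): a 2-group `N` normalizing `D ≅ Q8` with
`C_N(D) ≤ D` has `|N : D| ≤ 2` (`Aut(Q8) ≅ S4`, row S3742).
-/

set_option autoImplicit false

namespace Cfsg.Agent.Helper87.N9

open Subgroup Cfsg.Agent.Helper55.N9

variable {G : Type*} [Group G] [Finite G]

open QuaternionGroup in
theorem q2_q8_center : ∀ q : QuaternionGroup 2, q * a 1 = a 1 * q → q * xa 0 = xa 0 * q →
    q = 1 ∨ q = a 2 := by decide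

/-- Q2 -/
theorem n9_autQ8 (D N : Subgroup G) (hN : IsPGroup 2 N) (hD : IsQ8 D) (hDN : D ≤ N)
    (hn : N ≤ normalizer (D : Set G)) (hc : N ⊓ centralizer (D : Set G) ≤ D) :
    D.relIndex N ≤ 2 := by
  obtain ⟨e⟩ := hD
  have hD8 : Nat.card D = 8 := by
    rw [Nat.card_congr e.toEquiv, Nat.card_eq_fintype_card, QuaternionGroup.card]
  have hAut : Nat.card (MulAut ↥D) = 24 := by
    obtain ⟨f⟩ := Cfsg.Agent.S3742.result
    rw [Nat.card_congr ((MulAut.congr e).trans f).toEquiv, Nat.card_eq_fintype_card,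
      Fintype.card_perm, Fintype.card_fin]
    rfl
  let ψ : ↥N →* MulAut ↥D := (Subgroup.normalizerMonoidHom D).comp (Subgroup.inclusion hn)
  have hrange : Nat.card ψ.range ≤ 8 := by
    have hp : IsPGroup 2 ψ.range := hN.of_surjective ψ.rangeRestrict ψ.rangeRestrict_surjective
    obtain ⟨k, hk⟩ := IsPGroup.iff_card.mp hp
    have hdvd : Nat.card ψ.range ∣ 24 := by
      rw [← hAut]
      exact Subgroup.card_subgroup_dvd_card _
    rw [hk] at hdvd ⊢
    have hk3 : k ≤ 3 := by
      by_contra hk4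
      have h1 : 2 ^ 4 ∣ 2 ^ k := pow_dvd_pow 2 (by omega)
      have h2 := h1.trans hdvd
      norm_num at h2
    calc 2 ^ k ≤ 2 ^ 3 := Nat.pow_le_pow_right (by norm_num) hk3
      _ = 8 := by norm_num
  have hcent : ∀ n : ↥N, n ∈ ψ.ker → (n : G) ∈ centralizer (D : Set G) := by
    intro n hn'
    have h1 : Subgroup.inclusion hn n ∈ (Subgroup.normalizerMonoidHom D).ker := hn'
    rw [Subgroup.normalizerMonoidHom_ker, mem_subgroupOf] at h1
    exact h1
  have hker : Nat.card ψ.ker ≤ 2 := by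
    have hmemD : ∀ n : ↥ψ.ker, ((n : ↥N) : G) ∈ D :=
      fun n => hc ⟨(n : ↥N).2, hcent n n.2⟩
    have hval : ∀ n : ↥ψ.ker, e ⟨((n : ↥N) : G), hmemD n⟩ = 1 ∨
        e ⟨((n : ↥N) : G), hmemD n⟩ = QuaternionGroup.a 2 := by
      intro n
      have hcn := hcent n n.2
      have key : ∀ q : QuaternionGroup 2,
          e ⟨((n : ↥N) : G), hmemD n⟩ * q = q * e ⟨((n : ↥N) : G), hmemD n⟩ := by
        intro q
        have h1 : (⟨((n : ↥N) : G), hmemD n⟩ : ↥D) * e.symm q
            = e.symm q * ⟨((n : ↥N) : G), hmemD n⟩ := by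
          apply Subtype.ext
          exact (mem_centralizer_iff.mp hcn _ (e.symm q).2).symm
        have h2 := congrArg e h1
        simpa using h2
      exact q2_q8_center _ (key _) (key _)
    let g : ↥ψ.ker → {q : QuaternionGroup 2 // q = 1 ∨ q = QuaternionGroup.a 2} :=
      fun n => ⟨e ⟨((n : ↥N) : G), hmemD n⟩, hval n⟩
    have hg : Function.Injective g := by
      intro n₁ n₂ h12
      have h1 : e ⟨((n₁ : ↥N) : G), hmemD n₁⟩ = e ⟨((n₂ : ↥N) : G), hmemD n₂⟩ :=
        congrArg Subtype.val h12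
      have h2 := e.injective h1
      have h3 : ((n₁ : ↥N) : G) = ((n₂ : ↥N) : G) := congrArg (fun d : ↥D => (d : G)) h2
      exact Subtype.ext (Subtype.ext h3)
    have h1 := Nat.card_le_card_of_injective g hg
    have h2 : Nat.card {q : QuaternionGroup 2 // q = 1 ∨ q = QuaternionGroup.a 2} = 2 := by
      rw [Nat.card_eq_fintype_card]
      decide
    omega
  have hcard : Nat.card ψ.ker * Nat.card ψ.range = Nat.card ↥N := by
    rw [← Subgroup.index_ker]
    exact Subgroup.card_mul_index ψ.ker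
  have hN16 : Nat.card ↥N ≤ 16 := by
    calc Nat.card ↥N = Nat.card ψ.ker * Nat.card ψ.range := hcard.symm
      _ ≤ 2 * 8 := Nat.mul_le_mul hker hrange
  have hrel : Nat.card D * D.relIndex N = Nat.card N := by
    have h1 := relIndex_mul_relIndex (⊥ : Subgroup G) D N bot_le hDN
    rwa [relIndex_bot_left, relIndex_bot_left] at h1
  rw [hD8] at hrel
  omega

end Cfsg.Agent.Helper87.N9
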