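import Mathlib
import Cfsg.Agent.Helper87.SFDefs
import Cfsg.Prelude.Def_Sz

set_option autoImplicit false

namespace Cfsg.Agent.Helper87

open Cfsg.Agent.Helper87.SF

universe u

/-- ISOINV -/
theorem sf_iso_inv {X Y : Type u} [Group X] [Group Y] (e : X ≃* Y)
    (h : Cfsg.IsSuzukiOrPSL2OddPowerThree X) : Cfsg.IsSuzukiOrPSL2OddPowerThree Y := by
  rcases h with ⟨F, i1, i2, m, hm, hF, ⟨f⟩⟩ | ⟨F, i1, i2, n, hF, ⟨f⟩⟩
  · exact Or.inl ⟨F, i1, i2, m, hm, hF, ⟨e.symm.trans f⟩⟩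
  · exact Or.inr ⟨F, i1, i2, n, hF, ⟨e.symm.trans f⟩⟩

/-- STYPE -/
theorem sf_stype {G : Type u} [Group G]
    (h : Cfsg.IsCompositionKGroupWith Cfsg.IsSuzukiOrPSL2OddPowerThree G) (K : Subgroup G)
    (hK : K.IsSubnormal) (hs : IsSimpleGroup ↥K) (hn : NC K) :
    Cfsg.IsSuzukiOrPSL2OddPowerThree ↥K := by
  have e : ↥K ⧸ (⊥ : Subgroup ↥K) ≃* ↥K := QuotientGroup.quotientBot
  have hs' : IsSimpleGroup (↥K ⧸ (⊥ : Subgroup ↥K)) := e.isSimpleGroup_congr.2 hs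
  have hn' : ¬ IsMulCommutative (↥K ⧸ (⊥ : Subgroup ↥K)) := by
    intro hc
    apply hn
    intro x hx y hy
    have h1 := hc.is_comm.comm (e.symm ⟨x, hx⟩) (e.symm ⟨y, hy⟩)
    rw [← map_mul, ← map_mul] at h1
    exact congrArg Subtype.val (e.symm.injective h1)
  exact sf_iso_inv e (h K hK ⊥ hs' hn')

end Cfsg.Agent.Helper87
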