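import Mathlib
import Cfsg.Agent.Helper87.SFDefs
import Cfsg.Agent.Helper44.PSL2E
import Cfsg.Agent.Helper33.SFLAC

/-!
# CALL S2752 pieces LA1, LA2 (helper87): involutory automorphisms of PSL2(3^odd) in an S3-free group are inner.
-/

set_option autoImplicit false
set_option linter.style.haveILetI false

namespace Cfsg.Agent.Helper87

open Cfsg.Agent.Helper87.SF
open Cfsg.Agent.Helper33 (sf_l_aut_outer)
open Cfsg.Agent.Helper44

/-- LA1 -/
theorem sf_l_aut_model {F : Type} [Field F] [Fintype F] (n : ℕ)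
    (hF : Fintype.card F = 3 ^ (2 * n + 1)) (α : MulAut (PSL2 F)) (hα : α * α = 1) :
    (∃ s : PSL2 F, α = MulAut.conj s) ∨ ∃ u : PSL2 F, orderOf u = 3 ∧ α u = u⁻¹ := by
  haveI : Fact (Nat.Prime 3) := ⟨Nat.prime_three⟩
  haveI : CharP F 3 := charP_of_card 3 (2 * n + 1) hF
  have hcard := (ringAut_cyclic_card 3 (2 * n + 1) hF).2
  have h1 : galHom 3 α * galHom 3 α = 1 := by rw [← map_mul, hα, map_one]
  have h2 : galHom 3 α = 1 := by
    have ho : orderOf (galHom 3 α) ∣ 2 :=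
      orderOf_dvd_of_pow_eq_one (by rw [pow_two]; exact h1)
    have ho' : orderOf (galHom 3 α) ∣ 2 * n + 1 := by
      rw [← hcard]
      exact orderOf_dvd_natCard _
    have h3 : orderOf (galHom 3 α) = 1 := by
      rcases (Nat.dvd_prime Nat.prime_two).1 ho with h | h
      · exact h
      · rw [h] at ho'
        omega
    exact orderOf_eq_one_iff.1 h3
  obtain ⟨g, hg⟩ := exists_of_galHom_eq_one 3 α h2
  have h3 : dAut (g * g) = 1 := by rw [map_mul, ← hg, hα]
  obtain ⟨a, ha⟩ := dAut_eq_one (g * g) h3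
  by_cases hsq : IsSquare ((g : Matrix (Fin 2) (Fin 2) F).det)
  · left
    obtain ⟨x, hx⟩ := (dAut_inner_iff g).2 hsq
    exact ⟨x, by rw [hg, hx]⟩
  · right
    obtain ⟨u, hu, hu'⟩ := sf_l_aut_outer n hF g a ha hsq
    exact ⟨u, hu, by rw [hg]; exact hu'⟩

/-- LA2 -/
theorem sf_inner_l {G : Type*} [Group G] [Finite G] (hS3 : NoS3 G) (K : Subgroup G)
    {F : Type} [Field F] [Fintype F] (n : ℕ) (hF : Fintype.card F = 3 ^ (2 * n + 1))
    (e : ↥K ≃* Matrix.ProjectiveSpecialLinearGroup (Fin 2) F) (a : G) (haa : a * a = 1)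
    (haK : ∀ k ∈ K, a * k * a⁻¹ ∈ K) : ∃ s ∈ K, ∀ k ∈ K, a * k * a⁻¹ = s * k * s⁻¹ := by
  have hainv : a⁻¹ = a := inv_eq_of_mul_eq_one_left haa
  have hff : ∀ k : ↥K,
      (⟨a * (⟨a * k * a⁻¹, haK k k.2⟩ : ↥K) * a⁻¹, haK _ (haK k k.2)⟩ : ↥K) = k := by
    intro k
    apply Subtype.ext
    show a * (a * (k : G) * a⁻¹) * a⁻¹ = k
    rw [hainv]
    calc a * (a * (k : G) * a) * a = (a * a) * (k : G) * (a * a) := by group
      _ = k := by rw [haa, one_mul, mul_one]
  let φ : ↥K ≃* ↥K :=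
    { toFun := fun k => ⟨a * k * a⁻¹, haK k k.2⟩
      invFun := fun k => ⟨a * k * a⁻¹, haK k k.2⟩
      left_inv := hff
      right_inv := hff
      map_mul' := fun x y => by
        apply Subtype.ext
        show a * ((x : G) * (y : G)) * a⁻¹ = (a * (x : G) * a⁻¹) * (a * (y : G) * a⁻¹)
        group }
  have hφ : ∀ k : ↥K, ((φ k : ↥K) : G) = a * k * a⁻¹ := fun _ => rfl
  have hφφ : ∀ k : ↥K, φ (φ k) = k := hff
  let α : MulAut (Matrix.ProjectiveSpecialLinearGroup (Fin 2) F) := e.symm.trans (φ.trans e)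
  have hα : ∀ x, α x = e (φ (e.symm x)) := fun _ => rfl
  have hαα : α * α = 1 := by
    apply MulEquiv.ext
    intro x
    rw [MulAut.mul_apply, MulAut.one_apply, hα, hα, MulEquiv.symm_apply_apply, hφφ,
      MulEquiv.apply_symm_apply]
  rcases sf_l_aut_model n hF α hαα with ⟨s', hs'⟩ | ⟨u, hu, huinv⟩
  · refine ⟨(e.symm s' : G), (e.symm s').2, fun k hk => ?_⟩
    have h1 : α (e ⟨k, hk⟩) = s' * e ⟨k, hk⟩ * s'⁻¹ := by rw [hs']; rfl
    rw [hα, MulEquiv.symm_apply_apply] at h1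
    have h2 : φ ⟨k, hk⟩ = e.symm s' * ⟨k, hk⟩ * (e.symm s')⁻¹ := by
      apply e.injective
      rw [h1, map_mul, map_mul, map_inv, MulEquiv.apply_symm_apply]
    have h3 := congrArg Subtype.val h2
    exact h3
  · exfalso
    have h1 : φ (e.symm u) = (e.symm u)⁻¹ := by
      apply e.injective
      rw [← hα, huinv, map_inv, MulEquiv.apply_symm_apply]
    have h2 : a * (e.symm u : G) * a⁻¹ = (e.symm u : G)⁻¹ := congrArg Subtype.val h1
    have h3 : orderOf (e.symm u : G) = 3 := by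
      rw [Subgroup.orderOf_coe, ← hu]
      exact (orderOf_injective e.symm.toMonoidHom e.symm.injective u)
    exact hS3 a (e.symm u : G) haa h3 h2

end Cfsg.Agent.Helper87
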